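import Cfsg.Agent.Lib.Spor.Pack
import Cfsg.Agent.Lib.Spor.J4.Top
import Cfsg.Agent.Lib.Spor.J4B.Lift
import Cfsg.Prelude.Def_Sporadic

set_option autoImplicit false
set_option maxRecDepth 100000

namespace Cfsg.Agent.Spor.J4
open Cfsg.Agent.PG Cfsg.Agent.Spor Cfsg.Agent.Spor.J4A Subgroup Cfsg.Agent.Lib.PGroup

/-- the small claims -/
noncomputable def smL : List Claim :=
  [(powP [gw 5] 29, []), (powP [gw 6] 31, []), (powP [gw 7] 37, []), (powP [gw 8] 43, []),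
    (powP (gw 8 :: uw) (2 * 3 + 1), []), (uw ++ uw, []),
    (yw, uw ++ ((2 * hw) :: (uw ++ [2 * hw + 1]))), (powP [gw 25] 3, []), ([gw 12], czz)]

/-- the claims about the letters -/
structure Cl {Γ : Type} [Group Γ] (γ : ℕ → Γ) : Prop where
  h0 : ∀ j, 49 ≤ j → γ j = 1
  lift0 : Lift A γ 35
  clT : ∀ c ∈ dcClaims 34 36 cjT repsT, HoldsG γ c
  mxc : ∀ c ∈ mxClaims mxT, HoldsG γ c
  gn : ∀ c ∈ genClaims gn_g, HoldsG γ c
  pc11p : ∀ c ∈ pcPos 11 9 pc11, HoldsG γ c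
  pc11n : ∀ c ∈ (pcNeg 9 pc11).map Prod.fst, ¬ HoldsG γ c
  cme : ∀ c ∈ cmLet [gw 33] 35 49, HoldsG γ c
  core : ∀ c ∈ ((coreClaims 34 [0x0284] [0x028c] gsT).zip core_p).map Prod.fst, ¬ HoldsG γ c
  es : ∀ c ∈ esClaims 12 6, HoldsG γ c
  nzq : ∀ c ∈ nzClaims 25 12 nzq_r, HoldsG γ c
  nzn : ∀ c ∈ nzClaims 26 12 nzn_r, HoldsG γ c
  md5 : ∀ c ∈ modClaims J4B.cl5_l mdw5, HoldsG γ c
  md4 : ∀ c ∈ modClaims J4B.cl4_l mdw4, HoldsG γ c
  md3 : ∀ c ∈ modClaims J4B.cl3_l mdw3, HoldsG γ c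
  md2 : ∀ c ∈ modClaims J4B.cl2_l mdw2, HoldsG γ c
  md1 : ∀ c ∈ modClaims J4B.cl1_l mdw1, HoldsG γ c
  md0 : ∀ c ∈ modClaims J4B.cl0_l mdw0, HoldsG γ c
  cmz : ∀ c ∈ cmLet czz 12 33, HoldsG γ c
  cmn : ∀ c ∈ cmLet [gw 33] 12 26, HoldsG γ c
  ceqz : ∀ c ∈ eqClaims cgz cwz, HoldsG γ c
  cgoodz : ∀ c ∈ goodClaims (repsT.zip csz), HoldsG γ c
  cbadz : ∀ c ∈ ((badClaims czz cbz (repsT.zip csz)).zip cbadz_p).map Prod.fst, ¬ HoldsG γ c
  sm : ∀ c ∈ smL, HoldsG γ c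
  ng : ∀ c ∈ ng_l.map Prod.fst, ¬ HoldsG γ c

variable {Γ : Type} [Group Γ] {γ : ℕ → Γ}

theorem Cl.top (h : Cl γ) : TopOK A γ 34 36 0 OT cjT repsT := ⟨stab0, shT, rok, h.clT⟩

theorem Cl.inG (h : Cl γ) : ∀ j, 0 ≤ j → j < 33 → γ j ∈ KG γ 34 :=
  mem_of_genRun (a := 34) (b := 49) (fun _ h _ => mem_KG γ h) (by decide +kernel) h.gn

theorem Cl.pw (h : Cl γ) {j p : ℕ} (hj : j < 128) (hm : (powP [gw j] p, []) ∈ smL) :
    γ j ^ p = 1 := by
  simpa [HoldsG, ppG_powP, spG_gw γ hj] using h.sm _ hm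

theorem Cl.ne (h : Cl γ) {j : ℕ} (hj : j < 128) (hm : ([gw j], []) ∈ ng_l.map Prod.fst) :
    γ j ≠ 1 := by
  simpa [HoldsG, spG_gw γ hj] using h.ng _ hm

theorem Cl.fix (h : Cl γ) {φ : K A 35 →* Γ} (hφ : IsLift A γ 35 φ) {M : Subgroup Γ}
    (hM : M ≤ KG γ 35) (hM' : ∀ g ∈ KG γ 34, ∀ n ∈ M, g * n * g⁻¹ ∈ M) (σ : K A 35)
    (hσ : φ σ ∈ M) : ∀ i ∈ {i | ∃ τ ∈ K A 35, τ 0 = i}, (σ : Equiv.Perm ℕ) i = i :=
  top_core hA hφ h.top (a := [gw 33]) (b := [gw 35])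
    (comm_of_conj (comm_KG (by norm_num) h.h0 h.cme) (ppG_mem (by decide +kernel))) coreok
    (by decide +kernel) (neg_zip (by decide +kernel) h.core) hM hM' σ hσ

theorem Cl.inj (h : Cl γ) {φ : K A 35 →* Γ} (hφ : IsLift A γ 35 φ) : Function.Injective φ := by
  rw [injective_iff_map_eq_one]
  exact fun σ hσ => Subtype.ext (fixO _ σ.2 (h.fix hφ bot_le (by simp) σ (mem_bot.2 hσ)))

theorem Cl.isJ4 (h : Cl γ) : IsJ4 (KG γ 34) := by
  obtain ⟨φ, hφ⟩ := h.lift0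
  obtain ⟨e⟩ := iso_of_lift hφ (h.inj hφ)
  have hc : Nat.card (KG γ 35) = 501397585920 := by rw [← Nat.card_congr e.toEquiv, card0]
  obtain ⟨hf, hle⟩ := top_card_le hA hφ h.top (by decide +kernel) lbr card0
  have hle' : KG γ 35 ≤ KG γ 34 := KG_mono γ (by norm_num)
  have y1 : γ 8 ^ 43 = 1 := h.pw (by norm_num) (by simp [smL])
  have y2 : γ 8 ≠ 1 := h.ne (by norm_num) (by decide +kernel)
  have u1 : (γ 8 * Spor.ppG γ uw) ^ (2 * 3 + 1) = 1 := by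
    simpa [HoldsG, ppG_powP, spG_gw] using h.sm (powP (gw 8 :: uw) (2 * 3 + 1), []) (by simp [smL])
  have u2 : Spor.ppG γ uw * Spor.ppG γ uw = 1 := by
    simpa [HoldsG, ppG_append] using h.sm (uw ++ uw, []) (by simp [smL])
  have u3 : Spor.ppG γ uw ∈ KG γ 35 := ppG_mem (by decide +kernel)
  have u4 : Spor.ppG γ yw = Spor.ppG γ uw * (wpG γ hw * Spor.ppG γ uw * (wpG γ hw)⁻¹) := by
    simpa [HoldsG, ppG_append, spG_even, spG_odd, mul_assoc] using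
      h.sm (yw, uw ++ ((2 * hw) :: (uw ++ [2 * hw + 1]))) (by simp [smL])
  refine ⟨simple_of_top hle' (top_max hA hφ h.top mxok h.mxc)
    (fun M h1 h2 => bot_of_fix hφ fixO h1 (h.fix hφ h1 h2)) (p := 43) (by norm_num)
    (by rw [hc]; norm_num) (h.inG 8 (by norm_num) (by norm_num)) y1 y2 fun M hM hy => ?_, ?_⟩
  · have h1 := mem_of_odd hM hy (hle' u3) u1 u2
    refine ncl_lift hφ (u := yw) (by decide +kernel) nclH (fun g hg => hM g (hle' hg)) ?_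
    rw [u4]
    exact mul_mem h1 (hM _ (hle' (wpG_mem (by decide +kernel))) _ h1)
  · have d1 := pc_dvd (p := 11) (by norm_num) (fun j _ hj => h.inG j (Nat.zero_le _)
      (lt_trans hj (by decide))) pc11ok h.pc11p h.pc11n
    have d : ∀ j p, j < 33 → p.Prime → (powP [gw j] p, []) ∈ smL →
        ([gw j], []) ∈ ng_l.map Prod.fst → p ∣ Nat.card (KG γ 34) := fun j p a b c d =>
      prime_dvd_card b (h.inG j (Nat.zero_le _) a) (h.pw (by omega) c) (h.ne (by omega) d)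
    have d2 := d 5 29 (by norm_num) (by norm_num) (by simp [smL]) (by decide +kernel)
    have d3 := d 6 31 (by norm_num) (by norm_num) (by simp [smL]) (by decide +kernel)
    have d4 := d 7 37 (by norm_num) (by norm_num) (by simp [smL]) (by decide +kernel)
    have d5 := d 8 43 (by norm_num) (by norm_num) (by simp [smL]) (by decide +kernel)
    have d6 := card_dvd_of_le hle'
    rw [hc] at d6
    have d := Nat.lcm_dvd (Nat.lcm_dvd (Nat.lcm_dvd (Nat.lcm_dvd (Nat.lcm_dvd d1 d2) d3) d4) d5) d6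
    exact le_antisymm (hle.trans (by decide +kernel))
      (le_trans (by decide +kernel) (Nat.le_of_dvd Nat.card_pos d))

theorem Cl.ext [Finite Γ] (h : Cl γ) : ∃ ψ : ↥(KW γ 12 26 ⊔ KW γ 26 33) →* K J4B.A 26,
    Function.Surjective ψ ∧ ψ.ker = (KW γ 12 26).subgroupOf _ := by
  have hN := nz_of_claims nznok h.nzn
  obtain ⟨φ, hφ⟩ := J4B.liftAll (γ := barG γ (KW γ 12 26) 26 33) (fun j hj => barG_of_le γ _ hj)
    (holds_mod hN mdok5 h.md5) (holds_mod hN mdok4 h.md4) (holds_mod hN mdok3 h.md3)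
    (holds_mod hN mdok2 h.md2) (holds_mod hN mdok1 h.md1) (holds_mod hN mdok0 h.md0)
  have hl : J4B.A.length ≤ 128 := by rw [J4B.hlen]; norm_num
  have hle : K J4B.A 27 ≤ K J4B.A 26 := K_mono _ (by norm_num)
  have := finite_K J4B.hA 26
  have : ((K J4B.A 27).subgroupOf (K J4B.A 26)).Normal := normal_of_index_eq_two
    (index_of_card (a := 443520) (by
      rw [Nat.card_congr (subgroupOfEquivOfLe hle).toEquiv, J4B.card1]) (by rw [J4B.card0]))
  have := J4B.simple1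
  refine ext_of_lift hN hφ (inj_of_self hle (inj_of_simple ⟨⟨_, gp_mem_K _ le_rfl⟩, ?_⟩)
    (K_bset J4B.hA hl J4B.inv0) (mem_bset_ivl.2 (by norm_num)) (trans_of_cover J4B.hA hl J4B.cov1)
    (selfB_spec J4B.hA J4B.self1) J4B.fix0)
  rw [hφ.mono (by norm_num) 27 le_rfl]
  refine barG_ne_one hN (by norm_num) (by norm_num) fun hm => ?_
  have h1 := comm_KW (by norm_num) h.cmn _ hm
  have h2 := h.ng ([gw 27, gw 33], [gw 33, gw 27]) (by decide +kernel)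
  simp [HoldsG, spG_gw] at h1 h2
  exact h2 h1

theorem Cl.cent [Finite Γ] (h : Cl γ) : ∃ z : KG γ 34, orderOf z = 2 ∧
    ∃ (Q N M : Subgroup (centralizer ({z} : Set (KG γ 34)))), Q.Normal ∧ N.Normal ∧ Q ≤ N ∧
      N ≤ M ∧ Nat.card Q = 2 ^ 13 ∧ IsExtraspecial 2 Q ∧ Nat.card N = 3 * 2 ^ 13 ∧ M.index = 2 ∧
      ∃ (_ : (N.subgroupOf M).Normal), IsM22 (M ⧸ N.subgroupOf M) := by
  have : Fact (Nat.Prime 2) := ⟨Nat.prime_two⟩
  have : Fact (Nat.Prime 3) := ⟨Nat.prime_three⟩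
  obtain ⟨φ, hφ⟩ := h.lift0
  obtain ⟨ψ, hs, hk⟩ := h.ext
  obtain ⟨hes, hQ⟩ : IsES 2 (γ 12) (KW γ 12 25) ∧ Nat.card (KW γ 12 25) = 2 * 4 ^ 6 :=
    es_of_claims (a := 12) (k := 6) (by norm_num) (h.ne (by norm_num) (by decide +kernel)) h.es
  have hz : γ 12 = Spor.ppG γ czz := by
    simpa [HoldsG, spG_gw] using h.sm ([gw 12], czz) (by simp [smL])
  have hq := nz_of_claims nzqok h.nzq
  have w3 : γ 25 ^ 3 = 1 := h.pw (by norm_num) (by simp [smL])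
  have hN : Nat.card (KW γ 12 26) = 3 * 2 ^ 13 := by
    rw [KW_succ γ (by norm_num), card_sup_zpowers (hq 25 le_rfl (by norm_num))
      (not_mem_of_coprime Nat.prime_three w3 (h.ne (by norm_num) (by decide +kernel))
        (by rw [hQ]; norm_num)) (w3 ▸ one_mem _), hQ]
    norm_num
  have hm : ∀ j, (ivl 12 33).testBit j = true → γ j ∈ KW γ 12 26 ⊔ KW γ 26 33 := fun j hj => by
    obtain ⟨a, b⟩ := (testBit_ivl _ _ _).1 hj
    by_cases c : j < 26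
    · exact mem_sup_left (mem_KW γ a c)
    · exact mem_sup_right (mem_KW γ (by omega) b)
  have hle : ∀ {X : Subgroup Γ}, (∀ j, 12 ≤ j → j < 33 → γ j ∈ X) →
      KW γ 12 26 ⊔ KW γ 26 33 ≤ X := fun hX =>
    sup_le (KW_le fun j a b => hX j a (by omega)) (KW_le fun j a b => hX j (by omega) b)
  have h1 : ∀ y ∈ KW γ 12 26 ⊔ KW γ 26 33, Commute y (Spor.ppG γ czz) := fun y hy =>
    comm_KW (by norm_num) h.cmz y (hle (fun j a b => mem_KW γ a b) hy)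
  have h2 := top_cent hA hφ h.top (centz.conj hA hφ (b := czz) (by decide +kernel) cfix) h1
    (centz.sub hφ (h.inj hφ) (mem_of_eqClaims hm (by decide +kernel) (by decide +kernel) h.ceqz))
    hm (centz.comm hφ) centz.closed (by decide +kernel) crkz
    (neg_zip (by decide +kernel) h.cbadz) h.cgoodz
  rw [← hz] at h1 h2
  obtain ⟨ι, χ, i1, i2, i3, i4, i5⟩ := cent_pack (h.inG 12 (by norm_num) (by norm_num))
    (hle fun j _ b => h.inG j (Nat.zero_le _) b) h1 h2 hs hk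
  have l1 : KW γ 12 25 ≤ KW γ 12 26 := KW_le fun j a b => mem_KW γ a (by omega)
  have l2 : KW γ 12 25 ≤ ι.range := i2 ▸ l1.trans le_sup_left
  have c1 := (card_comap_of_le i1 l2).trans hQ
  have e1 := isES_comap i1 l2 (i3.symm ▸ hes)
  have l3 : K J4B.A 27 ≤ K J4B.A 26 := K_mono _ (by norm_num)
  obtain ⟨f⟩ := quot_comap i4 ((K J4B.A 27).subgroupOf (K J4B.A 26))
  have := finite_K J4B.hA 26
  refine ⟨_, (orderOf_injective _ (KG γ 34).subtype_injective _).symm.trans hes.ord,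
    (KW γ 12 25).comap ι, χ.ker, ((K J4B.A 27).subgroupOf (K J4B.A 26)).comap χ,
    normal_comap_of_le (i2 ▸ hle fun j a b => ?_), inferInstance, i5 ▸ comap_mono l1,
    ker_le_comap _ _, c1.trans (by norm_num),
    e1.isExtraspecial fun e => absurd (e1.eq_zpowers_iff.1 e) (by rw [c1]; norm_num),
    by rw [i5, card_comap_of_le i1 (i2 ▸ le_sup_left), hN], ?_, inferInstance,
    simple_card_congr (f.trans (subgroupOfEquivOfLe l3)).symm ⟨J4B.simple1, J4B.card1⟩⟩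
  · by_cases c : j < 25
    · exact le_normalizer (mem_KW γ a c)
    · exact hq j (by omega) b
  · rw [index_comap_of_surjective _ i4]
    exact index_of_card (a := 443520) (by
      rw [Nat.card_congr (subgroupOfEquivOfLe l3).toEquiv, J4B.card1]) (by rw [J4B.card0])

end Cfsg.Agent.Spor.J4
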