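import Cfsg.Agent.Lib.Spor.J4.Main
import Cfsg.Agent.Lib.Spor.J4.Fin

set_option autoImplicit false

namespace Cfsg.Agent.Spor.J4

theorem cl : Cl γ :=
  ⟨fun _ hj => γ_of_le (lenL ▸ hj), lift0, clT, mxc, gn, pc11p, pc11n, cme, core, es, nzq, nzn,
    md5, md4, md3, md2, md1, md0, cmz, cmn, ceqz, cgoodz, cbadz, sm, ng⟩

instance : Finite (GL (Fin P.n) (ZMod P.p)) := inferInstanceAs (Finite (GL (Fin 112) (ZMod 2)))

end Cfsg.Agent.Spor.J4
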