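import Cfsg.Agent.Lib.Spor.J4.Data
import Cfsg.Agent.Lib.Spor.J4A.Defs
import Cfsg.Agent.Lib.Spor.J4.Top

set_option autoImplicit false
set_option maxRecDepth 100000
set_option Elab.async false
set_option exponentiation.threshold 100000

namespace Cfsg.Agent.Spor.J4
open Cfsg.Agent.PG Cfsg.Agent.Spor Cfsg.Agent.Spor.J4A

theorem md3_0 : chkR P L 0 112 (modClaims J4B.cl3_l mdw3) = true := by decide +kernel

theorem md2_0 : chkR P L 0 112 (modClaims J4B.cl2_l mdw2) = true := by decide +kernel

theorem md1_0 : chkR P L 0 112 (modClaims J4B.cl1_l mdw1) = true := by decide +kernel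

theorem md0_0 : chkR P L 0 112 (modClaims J4B.cl0_l mdw0) = true := by decide +kernel

theorem cmz_0 : chkR P L 0 112 (cmLet czz 12 33) = true := by decide +kernel

theorem cmn_0 : chkR P L 0 112 (cmLet [gw 33] 12 26) = true := by decide +kernel

theorem ceqz_0 : chkR P L 0 112 (eqClaims cgz cwz) = true := by decide +kernel

theorem cgoodz_0 : chkR P L 0 112 (goodClaims (repsT.zip csz)) = true := by decide +kernel

theorem cbadz_0 : chkN P L (((badClaims czz cbz (repsT.zip csz)).zip cbadz_p).take 26) = true := by decide +kernel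

theorem cbadz_1 : chkN P L (((badClaims czz cbz (repsT.zip csz)).zip cbadz_p).drop 26) = true := by decide +kernel

theorem sm_0 : chkR P L 0 112 ([(powP [gw 5] 29, []), (powP [gw 6] 31, []), (powP [gw 7] 37, []), (powP [gw 8] 43, []), (powP (gw 8 :: uw) (2 * 3 + 1), []), (uw ++ uw, []), (yw, uw ++ ((2 * hw) :: (uw ++ [2 * hw + 1]))), (powP [gw 25] 3, []), ([gw 12], czz)]) = true := by decide +kernel

theorem ng_0 : chkN P L (ng_l) = true := by decide +kernel

end Cfsg.Agent.Spor.J4
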