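import Cfsg.Agent.Lib.Spor.J4.Data
import Cfsg.Agent.Lib.Spor.J4A.Defs
import Cfsg.Agent.Lib.Spor.J4.Top
import Cfsg.Agent.Lib.Spor.J4.C0
import Cfsg.Agent.Lib.Spor.J4.C1
import Cfsg.Agent.Lib.Spor.J4A.Main

set_option autoImplicit false
set_option maxRecDepth 100000
set_option Elab.async false
set_option exponentiation.threshold 100000

namespace Cfsg.Agent.Spor.J4
open Cfsg.Agent.PG Cfsg.Agent.Spor Cfsg.Agent.Spor.J4A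

noncomputable abbrev γ : ℕ → GL (Fin P.n) (ZMod P.p) := gam P L

theorem γ_of_le {j : ℕ} (h : L.length ≤ j) : γ j = 1 := gam_of_le P h

theorem hγ : ∀ j, Cfsg.Agent.Spor.J4A.A.length ≤ j → γ j = 1 := fun j hj => γ_of_le (by rw [Cfsg.Agent.Spor.J4A.hlen] at hj; rw [lenL]; exact hj)

theorem lift13 : Lift Cfsg.Agent.Spor.J4A.A γ 49 := lift_last fun j hj => hγ j (by rw [Cfsg.Agent.Spor.J4A.hlen]; exact hj)

theorem mcl12 : ∀ c ∈ Cfsg.Agent.Spor.J4A.cl12_l, HoldsG γ c :=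
  (chkM_spec good mcl12_0)

theorem lift12 : Lift Cfsg.Agent.Spor.J4A.A γ 48 :=
  lift_plain Cfsg.Agent.Spor.J4A.hA hγ lift13 Cfsg.Agent.Spor.J4A.ok12 Cfsg.Agent.Spor.J4A.cl12 mcl12

theorem mcl11 : ∀ c ∈ Cfsg.Agent.Spor.J4A.cl11_l, HoldsG γ c :=
  (chkM_spec good mcl11_0)

theorem lift11 : Lift Cfsg.Agent.Spor.J4A.A γ 47 :=
  lift_plain Cfsg.Agent.Spor.J4A.hA hγ lift12 Cfsg.Agent.Spor.J4A.ok11 Cfsg.Agent.Spor.J4A.cl11 mcl11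

theorem mcl10 : ∀ c ∈ Cfsg.Agent.Spor.J4A.cl10_l, HoldsG γ c :=
  (chkM_spec good mcl10_0)

theorem lift10 : Lift Cfsg.Agent.Spor.J4A.A γ 46 :=
  lift_plain Cfsg.Agent.Spor.J4A.hA hγ lift11 Cfsg.Agent.Spor.J4A.ok10 Cfsg.Agent.Spor.J4A.cl10 mcl10

theorem mcl9 : ∀ c ∈ Cfsg.Agent.Spor.J4A.cl9_l, HoldsG γ c :=
  (chkM_spec good mcl9_0)

theorem lift9 : Lift Cfsg.Agent.Spor.J4A.A γ 45 :=
  lift_plain Cfsg.Agent.Spor.J4A.hA hγ lift10 Cfsg.Agent.Spor.J4A.ok9 Cfsg.Agent.Spor.J4A.cl9 mcl9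

theorem mcl8 : ∀ c ∈ Cfsg.Agent.Spor.J4A.cl8_l, HoldsG γ c :=
  (chkM_spec good mcl8_0)

theorem lift8 : Lift Cfsg.Agent.Spor.J4A.A γ 44 :=
  lift_plain Cfsg.Agent.Spor.J4A.hA hγ lift9 Cfsg.Agent.Spor.J4A.ok8 Cfsg.Agent.Spor.J4A.cl8 mcl8

theorem mcl7 : ∀ c ∈ Cfsg.Agent.Spor.J4A.cl7_l, HoldsG γ c :=
  (chkM_spec good mcl7_0)

theorem lift7 : Lift Cfsg.Agent.Spor.J4A.A γ 43 :=
  lift_plain Cfsg.Agent.Spor.J4A.hA hγ lift8 Cfsg.Agent.Spor.J4A.ok7 Cfsg.Agent.Spor.J4A.cl7 mcl7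

theorem mcl6 : ∀ c ∈ Cfsg.Agent.Spor.J4A.cl6_l, HoldsG γ c :=
  (chkM_spec good mcl6_0)

theorem lift6 : Lift Cfsg.Agent.Spor.J4A.A γ 42 :=
  lift_plain Cfsg.Agent.Spor.J4A.hA hγ lift7 Cfsg.Agent.Spor.J4A.ok6 Cfsg.Agent.Spor.J4A.cl6 mcl6

theorem mcl5 : ∀ c ∈ Cfsg.Agent.Spor.J4A.cl5_l, HoldsG γ c :=
  (chkM_spec good mcl5_0)

theorem lift5 : Lift Cfsg.Agent.Spor.J4A.A γ 41 :=
  lift_plain Cfsg.Agent.Spor.J4A.hA hγ lift6 Cfsg.Agent.Spor.J4A.ok5 Cfsg.Agent.Spor.J4A.cl5 mcl5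

theorem mcl4 : ∀ c ∈ Cfsg.Agent.Spor.J4A.cl4_l, HoldsG γ c :=
  (chkM_spec good mcl4_0)

theorem lift4 : Lift Cfsg.Agent.Spor.J4A.A γ 40 :=
  lift_plain Cfsg.Agent.Spor.J4A.hA hγ lift5 Cfsg.Agent.Spor.J4A.ok4 Cfsg.Agent.Spor.J4A.cl4 mcl4

theorem mcl3 : ∀ c ∈ Cfsg.Agent.Spor.J4A.cl3_l, HoldsG γ c :=
  (forall_take_drop 72 (chkM_spec good mcl3_0)
  (forall_take_drop 55 (chkM_spec good mcl3_1)
  (chkM_spec good mcl3_2)))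

theorem lift3 : Lift Cfsg.Agent.Spor.J4A.A γ 38 :=
  lift_plain Cfsg.Agent.Spor.J4A.hA hγ lift4 Cfsg.Agent.Spor.J4A.ok3 Cfsg.Agent.Spor.J4A.cl3 mcl3

theorem mcl2 : ∀ c ∈ Cfsg.Agent.Spor.J4A.cl2_l, HoldsG γ c :=
  (forall_take_drop 52 (chkM_spec good mcl2_0)
  (chkM_spec good mcl2_1))

theorem lift2 : Lift Cfsg.Agent.Spor.J4A.A γ 37 :=
  lift_dc Cfsg.Agent.Spor.J4A.hA hγ lift3 Cfsg.Agent.Spor.J4A.stab3 Cfsg.Agent.Spor.J4A.ok2 Cfsg.Agent.Spor.J4A.cl2 mcl2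

theorem mcl1 : ∀ c ∈ Cfsg.Agent.Spor.J4A.cl1_l, HoldsG γ c :=
  (forall_take_drop 42 (chkM_spec good mcl1_0)
  (chkM_spec good mcl1_1))

theorem lift1 : Lift Cfsg.Agent.Spor.J4A.A γ 36 :=
  lift_dc Cfsg.Agent.Spor.J4A.hA hγ lift2 Cfsg.Agent.Spor.J4A.stab2 Cfsg.Agent.Spor.J4A.ok1 Cfsg.Agent.Spor.J4A.cl1 mcl1

theorem mcl0 : ∀ c ∈ Cfsg.Agent.Spor.J4A.cl0_l, HoldsG γ c :=
  (forall_take_drop 40 (chkM_spec good mcl0_0)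
  (forall_take_drop 17 (chkM_spec good mcl0_1)
  (chkM_spec good mcl0_2)))

theorem lift0 : Lift Cfsg.Agent.Spor.J4A.A γ 35 :=
  lift_dc Cfsg.Agent.Spor.J4A.hA hγ lift1 Cfsg.Agent.Spor.J4A.stab1 Cfsg.Agent.Spor.J4A.ok0 Cfsg.Agent.Spor.J4A.cl0 mcl0

theorem clT : ∀ c ∈ dcClaims 34 36 cjT repsT, HoldsG γ c :=
  (forall_take_drop 42 (chkM_spec good clT_0)
  (forall_take_drop 17 (chkM_spec good clT_1)
  (forall_take_drop 15 (chkM_spec good clT_2)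
  (forall_take_drop 16 (chkM_spec good clT_3)
  (forall_take_drop 17 (chkM_spec good clT_4)
  (forall_take_drop 14 (chkM_spec good clT_5)
  (forall_take_drop 15 (chkM_spec good clT_6)
  (chkM_spec good clT_7))))))))

theorem mxc : ∀ c ∈ mxClaims mxT, HoldsG γ c :=
  (chkM_spec good mxc_0)

theorem gn : ∀ c ∈ genClaims gn_g, HoldsG γ c :=
  (chkM_spec good gn_0)

theorem pc11p : ∀ c ∈ pcPos 11 9 pc11, HoldsG γ c :=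
  (chkM_spec good pc11p_0)

theorem pc11n : ∀ c ∈ (pcNeg 9 pc11).map Prod.fst, ¬ HoldsG γ c :=
  (chkN_spec good pc11n_0)

theorem cme : ∀ c ∈ cmLet [gw 33] 35 49, HoldsG γ c :=
  (chkM_spec good cme_0)

theorem core : ∀ c ∈ ((coreClaims 34 [0x0284] [0x028c] gsT).zip core_p).map Prod.fst, ¬ HoldsG γ c :=
  (chkN_spec good core_0)

theorem es : ∀ c ∈ esClaims 12 6, HoldsG γ c :=
  (chkM_spec good es_0)

theorem nzq : ∀ c ∈ nzClaims 25 12 nzq_r, HoldsG γ c :=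
  (forall_take_drop 54 (chkM_spec good nzq_0)
  (chkM_spec good nzq_1))

theorem nzn : ∀ c ∈ nzClaims 26 12 nzn_r, HoldsG γ c :=
  (forall_take_drop 60 (chkM_spec good nzn_0)
  (chkM_spec good nzn_1))

theorem md5 : ∀ c ∈ modClaims J4B.cl5_l mdw5, HoldsG γ c :=
  (chkM_spec good md5_0)

theorem md4 : ∀ c ∈ modClaims J4B.cl4_l mdw4, HoldsG γ c :=
  (chkM_spec good md4_0)

theorem md3 : ∀ c ∈ modClaims J4B.cl3_l mdw3, HoldsG γ c :=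
  (chkM_spec good md3_0)

theorem md2 : ∀ c ∈ modClaims J4B.cl2_l mdw2, HoldsG γ c :=
  (chkM_spec good md2_0)

theorem md1 : ∀ c ∈ modClaims J4B.cl1_l mdw1, HoldsG γ c :=
  (chkM_spec good md1_0)

theorem md0 : ∀ c ∈ modClaims J4B.cl0_l mdw0, HoldsG γ c :=
  (chkM_spec good md0_0)

theorem cmz : ∀ c ∈ cmLet czz 12 33, HoldsG γ c :=
  (chkM_spec good cmz_0)

theorem cmn : ∀ c ∈ cmLet [gw 33] 12 26, HoldsG γ c :=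
  (chkM_spec good cmn_0)

theorem ceqz : ∀ c ∈ eqClaims cgz cwz, HoldsG γ c :=
  (chkM_spec good ceqz_0)

theorem cgoodz : ∀ c ∈ goodClaims (repsT.zip csz), HoldsG γ c :=
  (chkM_spec good cgoodz_0)

theorem cbadz : ∀ c ∈ ((badClaims czz cbz (repsT.zip csz)).zip cbadz_p).map Prod.fst, ¬ HoldsG γ c :=
  (neg_take_drop 26 (chkN_spec good cbadz_0)
  (chkN_spec good cbadz_1))

theorem sm : ∀ c ∈ [(powP [gw 5] 29, []), (powP [gw 6] 31, []), (powP [gw 7] 37, []), (powP [gw 8] 43, []), (powP (gw 8 :: uw) (2 * 3 + 1), []), (uw ++ uw, []), (yw, uw ++ ((2 * hw) :: (uw ++ [2 * hw + 1]))), (powP [gw 25] 3, []), ([gw 12], czz)], HoldsG γ c :=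
  (chkM_spec good sm_0)

theorem ng : ∀ c ∈ (ng_l).map Prod.fst, ¬ HoldsG γ c :=
  (chkN_spec good ng_0)

end Cfsg.Agent.Spor.J4
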